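import Cfsg.Prelude.Def_Quasithin
import Cfsg.Agent.Lib.Cores.PCore

/-!
Perfect subnormal subgroups: they are normalized by normal solvable subgroups and are generated by
their elements of odd order.
-/

set_option autoImplicit false

namespace CfsgLib.Quasithin

open Cfsg CfsgLib.Cores

universe u

variable {G : Type u} [Group G]

theorem derivedSeries_add_le {K : Subgroup G} {n : ℕ} (hn : derivedSeries G n ≤ K) :
    ∀ i, derivedSeries G (n + i) ≤ (derivedSeries K i).map K.subtype
  | 0 => by rwa [derivedSeries_zero, ← MonoidHom.range_eq_map, Subgroup.range_subtype, Nat.add_zero]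
  | i + 1 => by
    rw [derivedSeries_succ, Subgroup.map_commutator, ← Nat.add_assoc, derivedSeries_succ]
    exact Subgroup.commutator_mono (derivedSeries_add_le hn i) (derivedSeries_add_le hn i)

theorem perfect_le_derivedSeries {S : Subgroup G} (hS : ⁅S, S⁆ = S) :
    ∀ n, S ≤ derivedSeries G n
  | 0 => by simp
  | n + 1 => by
    rw [derivedSeries_succ]
    exact hS.ge.trans (Subgroup.commutator_mono (perfect_le_derivedSeries hS n)
      (perfect_le_derivedSeries hS n))

/-- A perfect subnormal subgroup which generates the group with a normal solvable subgroup is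
normal. -/
theorem normal_of_perfect_subnormal_sup {S R : Subgroup G} [R.Normal] [Group.IsSolvable R]
    (hS : S.IsSubnormal) (hperf : ⁅S, S⁆ = S) (hsup : S ⊔ R = ⊤) : S.Normal := by
  have key : ∀ K : Subgroup G, K.IsSubnormal → S ≤ K → ∃ n, derivedSeries G n ≤ K := by
    intro K hK
    induction hK with
    | top => exact fun _ => ⟨0, le_top⟩
    | step H K hle _ hN ih =>
      intro hSH
      haveI := hN
      obtain ⟨n, hn⟩ := ih (hSH.trans hle)
      haveI : Group.IsSolvable (R.subgroupOf K) :=
        Group.isSolvable_of_isSolvable_injective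
          (f := ((K.subtype.comp (R.subgroupOf K).subtype).codRestrict R fun x => x.2))
          (fun a b h => Subtype.ext (Subtype.ext (congrArg (fun r : R => (r : G)) h)))
      haveI : Group.IsSolvable (K ⧸ H.subgroupOf K) := by
        refine Group.isSolvable_of_surjective
          (f := (QuotientGroup.mk' (H.subgroupOf K)).comp (R.subgroupOf K).subtype) ?_
        intro q
        obtain ⟨k, rfl⟩ := QuotientGroup.mk'_surjective (H.subgroupOf K) q
        have hk : (k : G) ∈ S ⊔ R := hsup ▸ Subgroup.mem_top _
        rw [Subgroup.mem_sup_of_normal_right] at hk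
        obtain ⟨s, hs, r, hr, hsr⟩ := hk
        have hrK : r ∈ K := by
          have := K.mul_mem (K.inv_mem (hle (hSH hs))) k.2
          rwa [← hsr, inv_mul_cancel_left] at this
        refine ⟨⟨⟨r, hrK⟩, hr⟩, ?_⟩
        have hsK : s ∈ K := hle (hSH hs)
        have hk' : k = ⟨s, hsK⟩ * ⟨r, hrK⟩ := Subtype.ext hsr.symm
        rw [hk', map_mul, show QuotientGroup.mk' (H.subgroupOf K) ⟨s, hsK⟩ = 1 from
          (QuotientGroup.eq_one_iff _).2 (hSH hs), one_mul]
        rfl
      obtain ⟨m, hm⟩ := Group.IsSolvable.solvable (G := K ⧸ H.subgroupOf K)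
      refine ⟨n + m, (derivedSeries_add_le hn m).trans ?_⟩
      rintro _ ⟨x, hx, rfl⟩
      have h1 : QuotientGroup.mk' (H.subgroupOf K) x ∈ derivedSeries (K ⧸ H.subgroupOf K) m :=
        map_derivedSeries_le_derivedSeries _ m (Subgroup.mem_map_of_mem _ hx)
      rw [hm, Subgroup.mem_bot] at h1
      exact (QuotientGroup.eq_one_iff x).1 h1
  obtain ⟨n, hn⟩ := key S hS le_rfl
  rw [le_antisymm (perfect_le_derivedSeries hperf n) hn]
  exact derivedSeries_normal G n

/-- A normal solvable subgroup normalizes every perfect subnormal subgroup. -/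
theorem le_normalizer_of_perfect_subnormal {S R : Subgroup G} [R.Normal] [Group.IsSolvable R]
    (hS : S.IsSubnormal) (hperf : ⁅S, S⁆ = S) : R ≤ Subgroup.normalizer (S : Set G) := by
  set Y := S ⊔ R with hY
  haveI : Group.IsSolvable (R.subgroupOf Y) :=
    Group.isSolvable_of_isSolvable_injective
      (f := ((Y.subtype.comp (R.subgroupOf Y).subtype).codRestrict R fun x => x.2))
      (fun a b h => Subtype.ext (Subtype.ext (congrArg (fun r : R => (r : G)) h)))
  have hSY : S ≤ Y := le_sup_left
  have h1 : (S.subgroupOf Y).Normal := by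
    refine normal_of_perfect_subnormal_sup (R := R.subgroupOf Y) hS.subgroupOf ?_ ?_
    · apply Subgroup.map_injective Y.subtype_injective
      rw [Subgroup.map_commutator, Subgroup.map_subgroupOf_eq_of_le hSY, hperf]
    · apply Subgroup.map_injective Y.subtype_injective
      rw [Subgroup.map_sup, Subgroup.map_subgroupOf_eq_of_le hSY,
        Subgroup.map_subgroupOf_eq_of_le (le_sup_right : R ≤ Y), ← MonoidHom.range_eq_map,
        Subgroup.range_subtype]
  rw [Subgroup.normal_subgroupOf_iff_le_normalizer hSY] at h1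
  exact le_sup_right.trans h1

theorem oddGenerated_le (H : Subgroup G) : oddGenerated H ≤ H :=
  (Subgroup.closure_le H).2 fun _ hx => hx.1

/-- A perfect subgroup of a finite group is generated by its elements of odd order. -/
theorem oddGenerated_eq_of_perfect [Finite G] {L : Subgroup G} (hperf : ⁅L, L⁆ = L) :
    oddGenerated L = L := by
  refine le_antisymm (oddGenerated_le L) ?_
  have hnorm : ∀ l ∈ L, ∀ x ∈ oddGenerated L, l * x * l⁻¹ ∈ oddGenerated L := by
    intro l hl x hx
    induction hx using Subgroup.closure_induction with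
    | mem y hy =>
      refine Subgroup.subset_closure ⟨L.mul_mem (L.mul_mem hl hy.1) (L.inv_mem hl), ?_⟩
      rw [← MulAut.conj_apply, MulEquiv.orderOf_eq]; exact hy.2
    | one => simp
    | mul a b _ _ iha ihb => simpa [mul_assoc] using (oddGenerated L).mul_mem iha ihb
    | inv a _ iha => simpa [mul_assoc] using (oddGenerated L).inv_mem iha
  haveI : ((oddGenerated L).subgroupOf L).Normal :=
    ⟨fun n hn g => hnorm (g : G) g.2 (n : G) hn⟩
  haveI : Group.IsPerfect L := by
    refine ⟨?_⟩
    apply Subgroup.map_injective L.subtype_injective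
    rw [commutator_def, Subgroup.map_commutator, ← MonoidHom.range_eq_map, Subgroup.range_subtype, hperf]
  haveI : Fact (Nat.Prime 2) := ⟨Nat.prime_two⟩
  have hq : IsPGroup 2 (L ⧸ (oddGenerated L).subgroupOf L) := by
    intro q
    obtain ⟨g, rfl⟩ := QuotientGroup.mk'_surjective _ q
    obtain ⟨k, m, hm, hg⟩ := Nat.exists_eq_pow_mul_and_not_dvd (orderOf_pos g).ne' 2 (by norm_num)
    refine ⟨k, ?_⟩
    rw [← map_pow]
    refine (QuotientGroup.eq_one_iff (g ^ 2 ^ k)).2 (Subgroup.mem_subgroupOf.2
      (Subgroup.subset_closure ⟨(g ^ 2 ^ k).2, ?_⟩))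
    rw [Subgroup.orderOf_coe, orderOf_pow' g (pow_ne_zero _ two_ne_zero), hg,
      Nat.gcd_eq_right (dvd_mul_right _ _), Nat.mul_div_cancel_left _ (pow_pos two_pos k)]
    exact Nat.odd_iff.2 (Nat.two_dvd_ne_zero.1 hm)
  haveI : Group.IsPerfect (L ⧸ (oddGenerated L).subgroupOf L) :=
    Group.IsPerfect.ofSurjective (f := QuotientGroup.mk' _) (QuotientGroup.mk'_surjective _)
  haveI : Group.IsNilpotent (L ⧸ (oddGenerated L).subgroupOf L) := hq.isNilpotent
  intro x hx
  have : Subsingleton (L ⧸ (oddGenerated L).subgroupOf L) := by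
    by_contra hs
    rw [not_subsingleton_iff_nontrivial] at hs
    exact Group.IsPerfect.not_isSolvable (L ⧸ (oddGenerated L).subgroupOf L) inferInstance
  exact (QuotientGroup.eq_one_iff (N := (oddGenerated L).subgroupOf L) (⟨x, hx⟩ : L)).1
    (Subsingleton.elim _ _)

end CfsgLib.Quasithin
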